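import Mathlib

/-!
# Classes of subgroups of order three (helper844): abstract assembly

`Γ` a group, `dl : Γ →* A` with `A` of exponent 2, `x t` representatives of the classes of elements of order 3 up to
inversion, `C t` the image of the centralizer of `x t` under `dl`. We describe the classes of subgroups of order 3 of
`ker dl / Z(ker dl)` and the action of `Γ` on them.
-/

set_option autoImplicit false

namespace Cfsg.Agent.H844.Assem

open Subgroup

/-! ### Subgroups of order three -/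

section three

variable {P : Type*} [Group P]

theorem orderOf_three {y : P} (h : y ^ 3 = 1) (h1 : y ≠ 1) : orderOf y = 3 := orderOf_eq_prime h h1

theorem mem_zpowers_three {y z : P} (h : y ^ 3 = 1) (hz : z ∈ zpowers y) : z = 1 ∨ z = y ∨ z = y⁻¹ := by
  obtain ⟨k, rfl⟩ := mem_zpowers_iff.1 hz
  have h3 : y ^ k = y ^ (k % 3) := by
    conv_lhs => rw [← Int.emod_add_mul_ediv k 3, zpow_add, zpow_mul]
    rw [show (3 : ℤ) = ((3 : ℕ) : ℤ) from rfl, zpow_natCast, h, one_zpow, mul_one]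
  have h4 : k % 3 = 0 ∨ k % 3 = 1 ∨ k % 3 = 2 := by omega
  rw [h3]
  rcases h4 with h4 | h4 | h4
  · left; rw [h4, zpow_zero]
  · right; left; rw [h4, zpow_one]
  · right; right
    rw [h4, eq_inv_iff_mul_eq_one, ← h]
    rw [show (2 : ℤ) = ((2 : ℕ) : ℤ) from rfl, zpow_natCast, ← pow_succ]

theorem exists_gen {X : Subgroup P} (hX : Nat.card X = 3) : ∃ y, y ^ 3 = 1 ∧ y ≠ 1 ∧ X = zpowers y := by
  have : Fact (Nat.Prime 3) := ⟨by norm_num⟩
  have hc : IsCyclic X := isCyclic_of_prime_card hX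
  obtain ⟨g, hg⟩ := hc.exists_generator
  have h1 : X = zpowers (g : P) := by
    apply le_antisymm
    · intro z hz
      obtain ⟨k, hk⟩ := mem_zpowers_iff.1 (hg ⟨z, hz⟩)
      exact mem_zpowers_iff.2 ⟨k, by rw [← Subgroup.coe_zpow, hk]⟩
    · rw [zpowers_le]
      exact g.2
  have h2 : orderOf (g : P) = 3 := by rw [← Nat.card_zpowers, ← h1, hX]
  refine ⟨g, ?_, ?_, h1⟩
  · rw [← h2, pow_orderOf_eq_one]
  · intro h
    rw [h, orderOf_one] at h2
    omega

theorem zpowers_eq_iff {y z : P} (hy : y ^ 3 = 1) (hz1 : z ≠ 1) :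
    zpowers z = zpowers y ↔ z = y ∨ z = y⁻¹ := by
  constructor
  · intro h
    have h1 : z ∈ zpowers y := by rw [← h]; exact mem_zpowers z
    rcases mem_zpowers_three hy h1 with h2 | h2
    · exact absurd h2 hz1
    · exact h2
  · rintro (rfl | rfl)
    · rfl
    · exact zpowers_inv

end three

/-! ### The classes in `Γ` -/

variable {Γ A T I : Type*} [Group Γ] [CommGroup A]

/-- classes of elements of order three up to inversion, with the images of the centralizers -/
structure Dat (dl : Γ →* A) (x : T → Γ) (C : T → A → Prop) : Prop where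
  sq : ∀ a : A, a * a = 1
  cube : ∀ t, x t ^ 3 = 1
  ne : ∀ t, x t ≠ 1
  hc : ∀ t a, C t a ↔ ∃ g, g * x t * g⁻¹ = x t ∧ dl g = a
  cov : ∀ z : Γ, z ^ 3 = 1 → z ≠ 1 → ∃ t g, g * z * g⁻¹ = x t
  sep : ∀ t t' g, g * x t * g⁻¹ = x t' ∨ g * x t * g⁻¹ = (x t')⁻¹ → t = t'
  real : ∀ t, ∃ g, g * x t * g⁻¹ = (x t)⁻¹ ∧ C t (dl g)

/-- indices for the classes of the kernel -/
structure Idx (dl : Γ →* A) (C : T → A → Prop) (t : I → T) (r : I → Γ) : Prop where
  inj : ∀ i j, t i = t j → C (t i) (dl (r i) * dl (r j)) → i = j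
  surj : ∀ s a, ∃ i, t i = s ∧ C s (a * dl (r i))

/-- the representatives -/
def yy (x : T → Γ) (t : I → T) (r : I → Γ) (i : I) : Γ := r i * x (t i) * (r i)⁻¹

variable {dl : Γ →* A} {x : T → Γ} {C : T → A → Prop} {t : I → T} {r : I → Γ}

theorem Dat.inv (h : Dat dl x C) (a : A) : a⁻¹ = a := inv_eq_of_mul_eq_one_left (h.sq a)

theorem Dat.mul (h : Dat dl x C) {s : T} {a b : A} (ha : C s a) (hb : C s b) : C s (a * b) := by
  obtain ⟨g, hg, rfl⟩ := (h.hc s a).1 ha
  obtain ⟨g', hg', rfl⟩ := (h.hc s b).1 hb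
  refine (h.hc s _).2 ⟨g * g', ?_, map_mul _ _ _⟩
  have : g * g' * x s * (g * g')⁻¹ = g * (g' * x s * g'⁻¹) * g⁻¹ := by group
  rw [this, hg', hg]

theorem yy_conj (g : Γ) (i j : I) (ε : Γ → Γ) (hε : ε = id ∨ ε = fun y => y⁻¹) :
    g * yy x t r i * g⁻¹ = ε (yy x t r j) ↔
      ((r j)⁻¹ * g * r i) * x (t i) * ((r j)⁻¹ * g * r i)⁻¹ = ε (x (t j)) := by
  have e1 : ((r j)⁻¹ * g * r i) * x (t i) * ((r j)⁻¹ * g * r i)⁻¹ = (r j)⁻¹ * (g * yy x t r i * g⁻¹) * r j := by
    simp only [yy, mul_inv_rev, inv_inv, mul_assoc]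
  rw [e1]
  have e2 : (r j)⁻¹ * ε (yy x t r j) * r j = ε (x (t j)) := by
    rcases hε with rfl | rfl
    · simp only [yy, id]; group
    · simp only [yy, mul_inv_rev, inv_inv]; group
  rw [← e2]
  constructor
  · intro h; rw [h]
  · intro h
    have := mul_right_cancel h
    exact mul_left_cancel this

/-- **Fusion.** -/
theorem Dat.fuse (h : Dat dl x C) (i j : I) (a : A) :
    (∃ g, dl g = a ∧ (g * yy x t r i * g⁻¹ = yy x t r j ∨ g * yy x t r i * g⁻¹ = (yy x t r j)⁻¹)) ↔
      t i = t j ∧ C (t i) (a * dl (r i) * dl (r j)) := by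
  constructor
  · rintro ⟨g, rfl, hg⟩
    have h1 : ((r j)⁻¹ * g * r i) * x (t i) * ((r j)⁻¹ * g * r i)⁻¹ = x (t j) ∨
        ((r j)⁻¹ * g * r i) * x (t i) * ((r j)⁻¹ * g * r i)⁻¹ = (x (t j))⁻¹ := by
      rcases hg with hg | hg
      · left; exact (yy_conj g i j id (Or.inl rfl)).1 hg
      · right; exact (yy_conj g i j (fun y => y⁻¹) (Or.inr rfl)).1 hg
    have ht := h.sep _ _ _ h1
    refine ⟨ht, ?_⟩
    have e : dl ((r j)⁻¹ * g * r i) = dl g * dl (r i) * dl (r j) := by
      rw [map_mul, map_mul, map_inv, h.inv, mul_comm (dl (r j)), mul_assoc, mul_comm (dl (r j)), mul_assoc]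
    rw [← ht] at h1
    rcases h1 with h1 | h1
    · exact (h.hc _ _).2 ⟨_, h1, e⟩
    · obtain ⟨ρ, hρ, hρ'⟩ := h.real (t i)
      have h2 : C (t i) (dl ρ * (dl g * dl (r i) * dl (r j))) := by
        refine (h.hc _ _).2 ⟨ρ * ((r j)⁻¹ * g * r i), ?_, by rw [map_mul, e]⟩
        generalize (r j)⁻¹ * g * r i = k at *
        have : ρ * k * x (t i) * (ρ * k)⁻¹ = ρ * (k * x (t i) * k⁻¹) * ρ⁻¹ := by group
        rw [this, h1]
        have h3 : ρ * (x (t i))⁻¹ * ρ⁻¹ = (ρ * x (t i) * ρ⁻¹)⁻¹ := by group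
        rw [h3, hρ, inv_inv]
      have h4 := h.mul hρ' h2
      rwa [← mul_assoc, h.sq, one_mul] at h4
  · rintro ⟨ht, hC⟩
    obtain ⟨k, hk, hk'⟩ := (h.hc _ _).1 hC
    refine ⟨r j * k * (r i)⁻¹, ?_, Or.inl ?_⟩
    · rw [map_mul, map_mul, map_inv, hk', h.inv]
      calc dl (r j) * (a * dl (r i) * dl (r j)) * dl (r i)
          = a * (dl (r i) * dl (r i)) * (dl (r j) * dl (r j)) := by
            simp only [mul_comm, mul_left_comm]
        _ = a := by rw [h.sq, h.sq, mul_one, mul_one]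
    · refine (yy_conj _ i j id (Or.inl rfl)).2 ?_
      have e : (r j)⁻¹ * (r j * k * (r i)⁻¹) * r i = k := by group
      rw [e, hk, ht]
      rfl

theorem yy_cube (h : Dat dl x C) (i : I) : yy x t r i ^ 3 = 1 := by
  rw [yy, conj_pow, h.cube, mul_one, mul_inv_cancel]

theorem yy_ne (h : Dat dl x C) (i : I) : yy x t r i ≠ 1 := by
  intro h1
  apply h.ne (t i)
  rw [yy] at h1
  have := mul_inv_eq_one.1 h1
  exact (mul_eq_left.1 this)

/-- an element of odd order is in the kernel -/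
theorem Dat.mem_ker (h : Dat dl x C) {z : Γ} (hz : z ^ 3 = 1) : z ∈ dl.ker := by
  rw [MonoidHom.mem_ker]
  have h1 := h.sq (dl z)
  have h2 : dl z ^ 3 = 1 := by rw [← map_pow, hz, map_one]
  rw [pow_succ, pow_two, h1, one_mul] at h2
  exact h2

theorem Dat.cover (h : Dat dl x C) (hI : Idx dl C t r) {z : Γ} (hz : z ^ 3 = 1) (hz1 : z ≠ 1) :
    ∃ i g, dl g = 1 ∧ g * z * g⁻¹ = yy x t r i := by
  obtain ⟨s, g, hg⟩ := h.cov z hz hz1
  obtain ⟨i, hi, hi'⟩ := hI.surj s (dl g)
  obtain ⟨k, hk, hk'⟩ := (h.hc _ _).1 hi'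
  refine ⟨i, r i * k * g, ?_, ?_⟩
  · rw [map_mul, map_mul, hk']
    calc dl (r i) * (dl g * dl (r i)) * dl g = (dl g * dl g) * (dl (r i) * dl (r i)) := by
          simp only [mul_comm, mul_left_comm]
      _ = 1 := by rw [h.sq, h.sq, mul_one]
  · have : r i * k * g * z * (r i * k * g)⁻¹ = r i * (k * (g * z * g⁻¹) * k⁻¹) * (r i)⁻¹ := by group
    rw [this, hg, hk, yy, hi]

/-! ### The quotient -/

/-- the automorphism of the central quotient -/
def quotAut {G : Type*} [Group G] : MulAut G →* MulAut (G ⧸ center G) where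
  toFun α := QuotientGroup.congr _ _ α (by
    ext x
    rw [Subgroup.mem_map]
    constructor
    · rintro ⟨y, hy, rfl⟩
      rw [Subgroup.mem_center_iff] at hy ⊢
      intro g
      have := congrArg α (hy (α.symm g))
      simpa using this
    · intro hx
      refine ⟨α.symm x, ?_, by simp⟩
      rw [Subgroup.mem_center_iff] at hx ⊢
      intro g
      have := congrArg α.symm (hx (α g))
      simpa using this)
  map_one' := by
    ext x
    induction x using QuotientGroup.induction_on with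
    | H x => rfl
  map_mul' α β := by
    ext x
    induction x using QuotientGroup.induction_on with
    | H x => rfl

theorem quotAut_mk {G : Type*} [Group G] (α : MulAut G) (g : G) :
    quotAut α (QuotientGroup.mk g) = QuotientGroup.mk (α g) := rfl

variable (dl) in
/-- the simple group -/
abbrev PP : Type _ := dl.ker ⧸ center dl.ker

variable (dl) in
/-- the automorphism induced by an element of `Γ` -/
def th : Γ →* MulAut (PP dl) := quotAut.comp MulAut.conjNormal

theorem th_mk (g : Γ) (e : dl.ker) : th dl g (QuotientGroup.mk e) = QuotientGroup.mk (MulAut.conjNormal g e) := rfl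

/-- the elements in the kernel -/
def y1 (h : Dat dl x C) (t : I → T) (r : I → Γ) (i : I) : dl.ker := ⟨yy x t r i, h.mem_ker (yy_cube h i)⟩

/-- the subgroups -/
def YY (h : Dat dl x C) (t : I → T) (r : I → Γ) (i : I) : Subgroup (PP dl) :=
  zpowers (QuotientGroup.mk (y1 h t r i))

theorem mk_cube (h : Dat dl x C) (i : I) : (QuotientGroup.mk (y1 h t r i) : PP dl) ^ 3 = 1 := by
  rw [← QuotientGroup.mk_pow, ← QuotientGroup.mk_one]
  congr 1
  apply Subtype.ext
  exact yy_cube h i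

/-- elements of order three with the same image -/
theorem eq_of_mk (hz : ∀ z ∈ center dl.ker, z ^ 2 = 1) {a b : dl.ker} (ha : a ^ 3 = 1) (hb : b ^ 3 = 1)
    (h : (QuotientGroup.mk a : PP dl) = QuotientGroup.mk b) : a = b := by
  rw [QuotientGroup.eq] at h
  have h1 := mem_center_iff.1 h
  have h2 := hz _ h
  set z := a⁻¹ * b with hzz
  have h3 : b = a * z := by rw [hzz, mul_inv_cancel_left]
  have h4 : b ^ 3 = a ^ 3 * z ^ 3 := by
    rw [h3]
    exact (show Commute a z from h1 a).mul_pow 3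
  rw [ha, hb, one_mul, pow_succ, h2, one_mul] at h4
  rw [h3, ← h4, mul_one]

theorem mk_ne (h : Dat dl x C) (hz : ∀ z ∈ center dl.ker, z ^ 2 = 1) (i : I) :
    (QuotientGroup.mk (y1 h t r i) : PP dl) ≠ 1 := by
  intro h1
  have h2 := eq_of_mk hz (b := 1) (Subtype.ext (yy_cube h i)) (one_pow 3) h1
  exact yy_ne h i (congrArg Subtype.val h2)

theorem YY_card (h : Dat dl x C) (hz : ∀ z ∈ center dl.ker, z ^ 2 = 1) (i : I) : Nat.card (YY h t r i) = 3 := by
  rw [YY, Nat.card_zpowers]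
  exact orderOf_three (mk_cube h i) (mk_ne h hz i)

theorem YY_cov (h : Dat dl x C) (hI : Idx dl C t r) (X : Subgroup (PP dl))
    (hX : Nat.card X = 3) : (∀ z ∈ center dl.ker, z ^ 2 = 1) → ∃ i, ∃ p : PP dl, X.map (MulAut.conj p).toMonoidHom = YY h t r i := by
  intro hz
  obtain ⟨y, hy3, hy1, rfl⟩ := exists_gen hX
  obtain ⟨e, rfl⟩ := QuotientGroup.mk_surjective y
  have h1 : e ^ 3 ∈ center dl.ker := by
    rw [← QuotientGroup.eq_one_iff, QuotientGroup.mk_pow]
    exact hy3
  have h2 := hz _ h1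
  have h3 : (e ^ 4) ^ 3 = 1 := by
    rw [← pow_mul, show 4 * 3 = 3 * 2 * 2 from rfl, pow_mul, pow_mul, h2, one_pow]
  have h4 : (QuotientGroup.mk (e ^ 4) : PP dl) = QuotientGroup.mk e := by
    rw [QuotientGroup.mk_pow, pow_succ, hy3, one_mul]
  have h5 : (e ^ 4 : dl.ker) ≠ 1 := by
    intro h5
    apply hy1
    rw [← h4, h5]
    rfl
  obtain ⟨i, g, hg, hg'⟩ := h.cover hI (z := ((e ^ 4 : dl.ker) : Γ)) (by rw [← Subgroup.coe_pow, h3]; rfl)
    (fun h6 => h5 (Subtype.ext h6))
  refine ⟨i, QuotientGroup.mk (⟨g, MonoidHom.mem_ker.2 hg⟩ : dl.ker), ?_⟩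
  rw [MonoidHom.map_zpowers, YY, ← h4]
  congr 1
  show (QuotientGroup.mk ((⟨g, MonoidHom.mem_ker.2 hg⟩ : dl.ker) * e ^ 4 * (⟨g, MonoidHom.mem_ker.2 hg⟩ : dl.ker)⁻¹) :
    PP dl) = _
  congr 1
  apply Subtype.ext
  exact hg'

/-- **Fusion in the quotient, with automorphisms.** -/
theorem YY_fuse (h : Dat dl x C) (hz : ∀ z ∈ center dl.ker, z ^ 2 = 1) (g : Γ) (i j : I) :
    (∃ p : PP dl, ((YY h t r i).map (th dl g).toMonoidHom).map (MulAut.conj p).toMonoidHom = YY h t r j) ↔
      t i = t j ∧ C (t i) (dl g * dl (r i) * dl (r j)) := by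
  rw [← h.fuse]
  have key : ∀ e : dl.ker, ((YY h t r i).map (th dl g).toMonoidHom).map
      (MulAut.conj (QuotientGroup.mk e : PP dl)).toMonoidHom = YY h t r j ↔
      ((e : Γ) * g) * yy x t r i * ((e : Γ) * g)⁻¹ = yy x t r j ∨
        ((e : Γ) * g) * yy x t r i * ((e : Γ) * g)⁻¹ = (yy x t r j)⁻¹ := by
    intro e
    set c : dl.ker := e * MulAut.conjNormal g (y1 h t r i) * e⁻¹ with hc
    have hcv : (c : Γ) = ((e : Γ) * g) * yy x t r i * ((e : Γ) * g)⁻¹ := by
      rw [hc, Subgroup.coe_mul, Subgroup.coe_mul, MulAut.conjNormal_apply, Subgroup.coe_inv]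
      show (e : Γ) * (g * yy x t r i * g⁻¹) * (e : Γ)⁻¹ = _
      group
    have hc3 : c ^ 3 = 1 := by
      apply Subtype.ext
      rw [Subgroup.coe_pow, hcv, conj_pow, yy_cube h, mul_one, mul_inv_cancel]
      rfl
    have e1 : ((YY h t r i).map (th dl g).toMonoidHom).map (MulAut.conj (QuotientGroup.mk e : PP dl)).toMonoidHom
        = zpowers (QuotientGroup.mk c : PP dl) := by
      rw [YY, MonoidHom.map_zpowers, MonoidHom.map_zpowers]
      rfl
    have hy3 : (y1 h t r j) ^ 3 = 1 := Subtype.ext (yy_cube h j)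
    have hc1 : (QuotientGroup.mk c : PP dl) ≠ 1 := by
      intro h1
      have h2 := eq_of_mk hz (b := 1) hc3 (one_pow 3) h1
      have h3 := congrArg Subtype.val h2
      rw [hcv] at h3
      apply yy_ne h i (t := t) (r := r)
      have h4 := mul_inv_eq_one.1 h3
      exact mul_eq_left.1 h4
    rw [e1, YY, zpowers_eq_iff (mk_cube h j) hc1, ← hcv]
    apply or_congr
    · constructor
      · intro h1
        exact congrArg Subtype.val (eq_of_mk hz hc3 hy3 h1)
      · intro h1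
        congr 1
        exact Subtype.ext h1
    · constructor
      · intro h1
        rw [← QuotientGroup.mk_inv] at h1
        have := eq_of_mk hz hc3 (b := (y1 h t r j)⁻¹) (by rw [inv_pow, hy3, inv_one]) h1
        exact congrArg Subtype.val this
      · intro h1
        rw [← QuotientGroup.mk_inv]
        congr 1
        exact Subtype.ext h1
  constructor
  · rintro ⟨p, hp⟩
    obtain ⟨e, rfl⟩ := QuotientGroup.mk_surjective p
    refine ⟨(e : Γ) * g, ?_, (key e).1 hp⟩
    rw [map_mul, (MonoidHom.mem_ker.1 e.2), one_mul]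
  · rintro ⟨k, hk, hk'⟩
    have he : k * g⁻¹ ∈ dl.ker := by
      rw [MonoidHom.mem_ker, map_mul, map_inv, hk, mul_inv_cancel]
    refine ⟨QuotientGroup.mk (⟨k * g⁻¹, he⟩ : dl.ker), (key _).2 ?_⟩
    simp only [inv_mul_cancel_right]
    exact hk'

theorem YY_sep (h : Dat dl x C) (hI : Idx dl C t r) (hz : ∀ z ∈ center dl.ker, z ^ 2 = 1) (i j : I)
    (hp : ∃ p : PP dl, (YY h t r i).map (MulAut.conj p).toMonoidHom = YY h t r j) : i = j := by
  obtain ⟨p, hp⟩ := hp
  have h1 : t i = t j ∧ C (t i) (dl 1 * dl (r i) * dl (r j)) := by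
    rw [← YY_fuse h hz 1 i j]
    refine ⟨p, ?_⟩
    rw [map_one]
    rw [← hp]
    congr 1
    exact Subgroup.map_id _
  rw [map_one, one_mul] at h1
  exact hI.inj i j h1.1 h1.2

/-! ### Transfer -/

theorem map_conj_equiv {P P' : Type*} [Group P] [Group P'] (e : P ≃* P') (X : Subgroup P) (p : P) :
    (X.map e.toMonoidHom).map (MulAut.conj (e p)).toMonoidHom = (X.map (MulAut.conj p).toMonoidHom).map e.toMonoidHom := by
  rw [Subgroup.map_map, Subgroup.map_map]
  congr 1
  ext q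
  show e p * e q * (e p)⁻¹ = e (p * q * p⁻¹)
  rw [map_mul, map_mul, map_inv]

/-- transfer of the classification of the classes of subgroups along an isomorphism -/
theorem transfer {P P' I : Type*} [Group P] [Group P'] (e : P ≃* P') (Y : I → Subgroup P) (n : ℕ)
    (h1 : ∀ i, Nat.card (Y i) = n)
    (h2 : ∀ i j, (∃ g : P, (Y i).map (MulAut.conj g).toMonoidHom = Y j) → i = j)
    (h3 : ∀ X : Subgroup P, Nat.card X = n → ∃ i, ∃ g : P, X.map (MulAut.conj g).toMonoidHom = Y i) :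
    ∃ Y : I → Subgroup P', (∀ i, Nat.card (Y i) = n) ∧
      (∀ i j, (∃ g : P', (Y i).map (MulAut.conj g).toMonoidHom = Y j) → i = j) ∧
      (∀ X : Subgroup P', Nat.card X = n → ∃ i, ∃ g : P', X.map (MulAut.conj g).toMonoidHom = Y i) := by
  have hc : ∀ X : Subgroup P, Nat.card (X.map e.toMonoidHom) = Nat.card X := fun X =>
    (Nat.card_congr (X.equivMapOfInjective e.toMonoidHom e.injective).toEquiv).symm
  have hinj : Function.Injective (Subgroup.map e.toMonoidHom) := Subgroup.map_injective e.injective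
  refine ⟨fun i => (Y i).map e.toMonoidHom, fun i => by rw [hc, h1], ?_, ?_⟩
  · rintro i j ⟨g, hg⟩
    obtain ⟨p, rfl⟩ := e.surjective g
    rw [map_conj_equiv] at hg
    exact h2 i j ⟨p, hinj hg⟩
  · intro X hX
    have h4 : (X.map e.symm.toMonoidHom).map e.toMonoidHom = X := by
      rw [Subgroup.map_map]
      have : e.toMonoidHom.comp e.symm.toMonoidHom = MonoidHom.id P' := by
        ext x
        exact e.apply_symm_apply x
      rw [this, Subgroup.map_id]
    obtain ⟨i, g, hg⟩ := h3 (X.map e.symm.toMonoidHom) (by rw [← hc, h4, hX])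
    refine ⟨i, e g, ?_⟩
    show _ = (Y i).map e.toMonoidHom
    rw [← hg, ← map_conj_equiv, h4]

end Cfsg.Agent.H844.Assem
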