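import Mathlib
import Cfsg.Agent.H844.SFour
import Cfsg.Agent.H844.Assem

/-!
# The action of automorphisms on classes of subgroups (helper844)
-/

set_option autoImplicit false

namespace Cfsg.Agent.H844.ClsAct

open Equiv Subgroup

variable {P I : Type*} [Group P] {Y : I → Subgroup P} {n : ℕ}

/-- representatives of the classes of subgroups of order `n` -/
structure Reps (Y : I → Subgroup P) (n : ℕ) : Prop where
  card : ∀ i, Nat.card (Y i) = n
  sep : ∀ i j, (∃ g : P, (Y i).map (MulAut.conj g).toMonoidHom = Y j) → i = j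
  cov : ∀ X : Subgroup P, Nat.card X = n → ∃ i, ∃ g : P, X.map (MulAut.conj g).toMonoidHom = Y i

/-- the relation -/
def Rel (Y : I → Subgroup P) (α : MulAut P) (i j : I) : Prop :=
  ∃ p : P, ((Y i).map α.toMonoidHom).map (MulAut.conj p).toMonoidHom = Y j

theorem map_conj_aut (α : MulAut P) (X : Subgroup P) (p : P) :
    (X.map (MulAut.conj p).toMonoidHom).map α.toMonoidHom
      = (X.map α.toMonoidHom).map (MulAut.conj (α p)).toMonoidHom := by
  rw [Subgroup.map_map, Subgroup.map_map]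
  congr 1
  ext q
  show α (p * q * p⁻¹) = α p * α q * (α p)⁻¹
  rw [map_mul, map_mul, map_inv]

theorem conj_conj (X : Subgroup P) (p q : P) :
    (X.map (MulAut.conj p).toMonoidHom).map (MulAut.conj q).toMonoidHom
      = X.map (MulAut.conj (q * p)).toMonoidHom := by
  rw [Subgroup.map_map]
  congr 1
  ext r
  show q * (p * r * p⁻¹) * q⁻¹ = q * p * r * (q * p)⁻¹
  group

theorem conj_cancel {X Z : Subgroup P} {p : P} (h : X.map (MulAut.conj p).toMonoidHom = Z) :
    Z.map (MulAut.conj p⁻¹).toMonoidHom = X := by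
  rw [← h, conj_conj, inv_mul_cancel]
  convert Subgroup.map_id X using 2
  ext r
  simp

theorem Reps.uniq (h : Reps Y n) {α : MulAut P} {i j k : I} (h1 : Rel Y α i j) (h2 : Rel Y α i k) : j = k := by
  obtain ⟨p, hp⟩ := h1
  obtain ⟨q, hq⟩ := h2
  apply h.sep
  refine ⟨q * p⁻¹, ?_⟩
  rw [← conj_conj, conj_cancel hp, hq]

theorem Reps.exists_rel (h : Reps Y n) (α : MulAut P) (i : I) : ∃ j, Rel Y α i j := by
  obtain ⟨j, p, hp⟩ := h.cov ((Y i).map α.toMonoidHom) (by
    rw [← h.card i]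
    exact (Nat.card_congr ((Y i).equivMapOfInjective α.toMonoidHom α.injective).toEquiv).symm)
  exact ⟨j, p, hp⟩

/-- the action -/
noncomputable def Reps.act (h : Reps Y n) (α : MulAut P) (i : I) : I := (h.exists_rel α i).choose

theorem Reps.act_spec (h : Reps Y n) (α : MulAut P) (i : I) : Rel Y α i (h.act α i) := (h.exists_rel α i).choose_spec

theorem Reps.act_eq (h : Reps Y n) {α : MulAut P} {i j : I} : h.act α i = j ↔ Rel Y α i j :=
  ⟨fun e => e ▸ h.act_spec α i, fun e => h.uniq (h.act_spec α i) e⟩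

theorem Reps.act_mul (h : Reps Y n) (α β : MulAut P) (i : I) : h.act (α * β) i = h.act α (h.act β i) := by
  rw [h.act_eq]
  obtain ⟨p, hp⟩ := h.act_spec β i
  obtain ⟨q, hq⟩ := h.act_spec α (h.act β i)
  refine ⟨q * α p, ?_⟩
  rw [← hq, ← hp, map_conj_aut, conj_conj]
  congr 1
  rw [Subgroup.map_map]
  rfl

theorem Reps.act_conj (h : Reps Y n) (p : P) (i : I) : h.act (MulAut.conj p) i = i := by
  rw [h.act_eq]
  exact ⟨p⁻¹, conj_cancel rfl⟩

theorem Reps.act_one (h : Reps Y n) (i : I) : h.act 1 i = i := by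
  have := h.act_conj 1 i
  rwa [map_one] at this

/-- the permutation representation -/
noncomputable def Reps.pi (h : Reps Y n) : MulAut P →* Perm I :=
  letI : MulAction (MulAut P) I :=
    { smul := h.act
      one_smul := h.act_one
      mul_smul := h.act_mul }
  MulAction.toPermHom (MulAut P) I

theorem Reps.pi_apply (h : Reps Y n) (α : MulAut P) (i : I) : h.pi α i = h.act α i := rfl

/-- the permutation representation of the outer automorphism group -/
noncomputable def Reps.opi (h : Reps Y n) : Cfsg.Out P →* Perm I :=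
  QuotientGroup.lift (Cfsg.Inn P) h.pi (by
    rintro _ ⟨p, rfl⟩
    ext i
    exact h.act_conj p i)

theorem Reps.opi_mk (h : Reps Y n) (α : MulAut P) : h.opi (QuotientGroup.mk' (Cfsg.Inn P) α) = h.pi α := rfl

/-! ### The extension -/

set_option linter.unusedSectionVars false

variable {G : Type*} [Group G] {L : Subgroup G} [L.Normal]

/-- the image in `G` of a subgroup of `P` -/
def up (f : L ≃* P) (X : Subgroup P) : Subgroup G := (X.map f.symm.toMonoidHom).map L.subtype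

theorem up_le (f : L ≃* P) (X : Subgroup P) : up f X ≤ L := Subgroup.map_subtype_le _

theorem up_card (f : L ≃* P) (X : Subgroup P) : Nat.card (up f X) = Nat.card X := by
  rw [up, Nat.card_congr ((X.map f.symm.toMonoidHom).equivMapOfInjective L.subtype L.subtype_injective).toEquiv.symm,
    Nat.card_congr (X.equivMapOfInjective f.symm.toMonoidHom f.symm.injective).toEquiv.symm]

theorem mem_up (f : L ≃* P) (X : Subgroup P) (x : G) : x ∈ up f X ↔ ∃ h : x ∈ L, f ⟨x, h⟩ ∈ X := by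
  constructor
  · rintro ⟨_, ⟨y, hy, rfl⟩, rfl⟩
    refine ⟨(f.symm y).2, ?_⟩
    have : f ⟨((f.symm y : L) : G), (f.symm y).2⟩ = y := f.apply_symm_apply y
    show f ⟨((f.symm y : L) : G), (f.symm y).2⟩ ∈ X
    rw [this]
    exact hy
  · rintro ⟨h, hx⟩
    exact ⟨⟨x, h⟩, ⟨f ⟨x, h⟩, hx, f.symm_apply_apply _⟩, rfl⟩

theorem up_conj (f : L ≃* P) (X : Subgroup P) (g : G) :
    (up f X).map (MulAut.conj g).toMonoidHom = up f (X.map (AutEmb.emb f g).toMonoidHom) := by
  ext x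
  rw [mem_up]
  constructor
  · rintro ⟨y, hy, rfl⟩
    obtain ⟨hy1, hy2⟩ := (mem_up f X y).1 hy
    have h1 : g * y * g⁻¹ ∈ L := Normal.conj_mem inferInstance y hy1 g
    refine ⟨h1, f ⟨y, hy1⟩, hy2, ?_⟩
    exact AutEmb.emb_apply_map f g ⟨y, hy1⟩
  · rintro ⟨hx, y, hy, hyx⟩
    obtain ⟨l, rfl⟩ := f.surjective y
    have h1 : f (MulAut.conjNormal g l) = f ⟨x, hx⟩ := by
      rw [← hyx]
      exact (AutEmb.emb_apply_map f g l).symm
    have h2 := congrArg Subtype.val (f.injective h1)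
    rw [MulAut.conjNormal_apply] at h2
    refine ⟨l, (mem_up f X _).2 ⟨l.2, hy⟩, h2⟩

theorem up_injective (f : L ≃* P) : Function.Injective (up f) :=
  (Subgroup.map_injective L.subtype_injective).comp (Subgroup.map_injective f.symm.injective)

theorem up_surj (f : L ≃* P) {X : Subgroup G} (hX : X ≤ L) : ∃ Z, up f Z = X := by
  refine ⟨(X.subgroupOf L).map f.toMonoidHom, ?_⟩
  ext x
  rw [mem_up]
  constructor
  · rintro ⟨h, y, hy, hyx⟩
    have := f.injective hyx
    rw [this] at hy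
    exact hy
  · intro hx
    exact ⟨hX hx, ⟨x, hX hx⟩, hx, rfl⟩

/-- conjugacy in `G` -/
theorem Reps.conj_iff (h : Reps Y n) (f : L ≃* P) (i j : I) :
    (∃ g : G, (up f (Y i)).map (MulAut.conj g).toMonoidHom = up f (Y j)) ↔ ∃ g : G, h.act (AutEmb.emb f g) i = j := by
  constructor
  · rintro ⟨g, hg⟩
    refine ⟨g, h.act_eq.2 ⟨1, ?_⟩⟩
    rw [up_conj] at hg
    rw [up_injective f hg]
    convert Subgroup.map_id (Y j) using 2
    ext r
    simp
  · rintro ⟨g, hg⟩
    obtain ⟨p, hp⟩ := h.act_eq.1 hg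
    obtain ⟨l, rfl⟩ := f.surjective p
    refine ⟨(l : G) * g, ?_⟩
    rw [up_conj, ← hp, map_mul, AutEmb.emb_coe, Subgroup.map_map]
    rfl

/-- **Orbits of the extension** -/
theorem orbits [Fintype I] (h : Reps Y n) (f : L ≃* P) (hc : centralizer (L : Set G) ≤ L) (hz : center P = ⊥)
    (e : Cfsg.Out P ≃* Perm (Fin 4)) (hq : Nat.card (G ⧸ L) = 6) {N : ℕ}
    (hN : ∀ i : Fin 4, ∃ ρ : Fin N → I, (∀ k l, (∃ t ∈ AutEmb.stab i, h.opi (e.symm t) (ρ k) = ρ l) → k = l) ∧
      ∀ x, ∃ k, ∃ t ∈ AutEmb.stab i, h.opi (e.symm t) x = ρ k) :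
    ∃ Z : Fin N → Subgroup G, (∀ i, Z i ≤ L ∧ Nat.card (Z i) = n) ∧
      (∀ i j, (∃ g : G, (Z i).map (MulAut.conj g).toMonoidHom = Z j) → i = j) ∧
      ∀ X : Subgroup G, X ≤ L → Nat.card X = n → ∃ i, ∃ g : G, X.map (MulAut.conj g).toMonoidHom = Z i := by
  have h1 : Nat.card ((AutEmb.oemb f).range.map e.toMonoidHom) = 6 := by
    rw [← hq, ← AutEmb.card_range_oemb f hc hz]
    exact (Nat.card_congr ((AutEmb.oemb f).range.equivMapOfInjective e.toMonoidHom e.injective).toEquiv).symm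
  obtain ⟨i0, hi0⟩ := AutEmb.eq_stab _ h1
  obtain ⟨ρ, hρ, hρ'⟩ := hN i0
  have key : ∀ x y, (∃ t ∈ AutEmb.stab i0, h.opi (e.symm t) x = y) ↔ ∃ g : G, h.act (AutEmb.emb f g) x = y := by
    intro x y
    rw [← hi0]
    constructor
    · rintro ⟨_, ⟨_, ⟨g, rfl⟩, rfl⟩, hg⟩
      refine ⟨g, ?_⟩
      rw [← hg]
      show _ = h.opi (e.symm (e (AutEmb.oemb f g))) x
      rw [e.symm_apply_apply]
      rfl
    · rintro ⟨g, hg⟩
      refine ⟨e (AutEmb.oemb f g), ⟨_, ⟨g, rfl⟩, rfl⟩, ?_⟩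
      rw [e.symm_apply_apply, ← hg]
      rfl
  refine ⟨fun k => up f (Y (ρ k)), fun k => ⟨up_le _ _, by rw [up_card, h.card]⟩, ?_, ?_⟩
  · intro k l hkl
    exact hρ k l ((key _ _).2 ((h.conj_iff f _ _).1 hkl))
  · intro X hX hX'
    obtain ⟨Z, rfl⟩ := up_surj f hX
    obtain ⟨i, p, hp⟩ := h.cov Z (by rw [← up_card f, hX'])
    obtain ⟨k, hk⟩ := hρ' i
    obtain ⟨g, hg⟩ := (h.conj_iff f _ _).2 ((key _ _).1 hk)
    obtain ⟨l, rfl⟩ := f.surjective p
    refine ⟨k, g * (l : G), ?_⟩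
    have e1 : (up f Z).map (MulAut.conj (l : G)).toMonoidHom = up f (Y i) := by
      rw [up_conj, AutEmb.emb_coe, hp]
    show _ = up f (Y (ρ k))
    rw [← hg, ← e1, conj_conj]

/-! ### Everything together -/

theorem Reps.fx_iff {I : Type} [Fintype I] [DecidableEq I] {Y : I → Subgroup P} (h : Reps Y n)
    (e : Cfsg.Out P ≃* Perm (Fin 4)) (α : MulAut P) (i : I) :
    i ∈ SFour.fx (h.opi.comp e.symm.toMonoidHom) (e (QuotientGroup.mk' (Cfsg.Inn P) α)) ↔ h.act α i = i := by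
  rw [SFour.mem_fx, MonoidHom.comp_apply]
  show h.opi (e.symm (e _)) i = i ↔ _
  rw [e.symm_apply_apply]
  exact Iff.rfl

section final

variable {Γ A T : Type*} {I : Type} [Group Γ] [CommGroup A] {dl : Γ →* A} {x : T → Γ} {C : T → A → Prop} {t : I → T}
  {r : I → Γ}

/-- the outer class only depends on `dl` -/
theorem out_eq {g g' : Γ} (h : dl g = dl g') :
    QuotientGroup.mk' (Cfsg.Inn (Assem.PP dl)) (Assem.th dl g) = QuotientGroup.mk' (Cfsg.Inn (Assem.PP dl)) (Assem.th dl g') := by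
  have h1 : g⁻¹ * g' ∈ dl.ker := by
    rw [MonoidHom.mem_ker, map_mul, map_inv, h, inv_mul_cancel]
  have h2 : Assem.th dl (g⁻¹ * g') = MulAut.conj (QuotientGroup.mk (⟨g⁻¹ * g', h1⟩ : dl.ker)) := by
    ext y
    obtain ⟨y, rfl⟩ := QuotientGroup.mk_surjective y
    rfl
  have h3 : QuotientGroup.mk' (Cfsg.Inn (Assem.PP dl)) (Assem.th dl (g⁻¹ * g')) = 1 := by
    rw [← MonoidHom.mem_ker, QuotientGroup.ker_mk', h2]
    exact ⟨_, rfl⟩
  have h4 : Assem.th dl g' = Assem.th dl g * Assem.th dl (g⁻¹ * g') := by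
    rw [← map_mul, mul_inv_cancel_left]
  rw [h4, map_mul, h3, mul_one]

theorem reps_of (h : Assem.Dat dl x C) (hI : Assem.Idx dl C t r) (hz : ∀ z ∈ center dl.ker, z ^ 2 = 1) :
    Reps (Assem.YY h t r) 3 where
  card := Assem.YY_card h hz
  sep i j hp := Assem.YY_sep h hI hz i j hp
  cov X hX := Assem.YY_cov h hI X hX hz

theorem fixed_iff (h : Assem.Dat dl x C) (hI : Assem.Idx dl C t r) (hz : ∀ z ∈ center dl.ker, z ^ 2 = 1) (g : Γ) (i : I) :
    (reps_of h hI hz).act (Assem.th dl g) i = i ↔ C (t i) (dl g) := by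
  rw [(reps_of h hI hz).act_eq, Rel, Assem.YY_fuse h hz, mul_assoc, h.sq, mul_one]
  exact and_iff_right rfl

/-- **Orbits of `PΩ : S₃`** -/
theorem orbits_dat [Fintype I] (h : Assem.Dat dl x C) (hI : Assem.Idx dl C t r)
    (hz : ∀ z ∈ center dl.ker, z ^ 2 = 1) (hcI : Fintype.card I = 13) [∀ s a, Decidable (C s a)] (ga gb : Γ)
    (c1 : (Finset.univ.filter fun i => C (t i) (dl ga)).card = 7)
    (c2 : (Finset.univ.filter fun i => C (t i) (dl gb)).card = 7)
    (c3 : (Finset.univ.filter fun i => C (t i) (dl ga * dl gb)).card = 5)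
    (c4 : ∀ i, C (t i) (dl ga * dl gb) → C (t i) (dl ga))
    (L : Subgroup G) [L.Normal] (f : L ≃* Assem.PP dl)
    (hc : centralizer (L : Set G) ≤ L) (hz' : center (Assem.PP dl) = ⊥)
    (e : Cfsg.Out (Assem.PP dl) ≃* Perm (Fin 4)) (hq : Nat.card (G ⧸ L) = 6) :
    ∃ Z : Fin 7 → Subgroup G, (∀ i, Z i ≤ L ∧ Nat.card (Z i) = 3) ∧
      (∀ i j, (∃ g : G, (Z i).map (MulAut.conj g).toMonoidHom = Z j) → i = j) ∧
      ∀ X : Subgroup G, X ≤ L → Nat.card X = 3 → ∃ i, ∃ g : G, X.map (MulAut.conj g).toMonoidHom = Z i := by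
  classical
  apply orbits (reps_of h hI hz) f hc hz' e hq
  intro i
  have h1 : ∀ a b, e (QuotientGroup.mk' (Cfsg.Inn (Assem.PP dl)) (Assem.th dl a)) *
      e (QuotientGroup.mk' (Cfsg.Inn (Assem.PP dl)) (Assem.th dl b))
      = e (QuotientGroup.mk' (Cfsg.Inn (Assem.PP dl)) (Assem.th dl (a * b))) := by
    intro a b
    rw [← map_mul, ← map_mul, ← map_mul]
  have h0 : ∀ a, dl a = 1 → e (QuotientGroup.mk' (Cfsg.Inn (Assem.PP dl)) (Assem.th dl a)) = 1 := by
    intro a ha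
    rw [out_eq (g' := 1) (by rw [ha, map_one]), map_one, map_one, map_one]
  have hcard : ∀ g : Γ, (SFour.fx ((reps_of h hI hz).opi.comp e.symm.toMonoidHom)
      (e (QuotientGroup.mk' (Cfsg.Inn (Assem.PP dl)) (Assem.th dl g)))).card =
      (Finset.univ.filter fun i => C (t i) (dl g)).card := by
    intro g
    congr 1
    ext j
    rw [(reps_of h hI hz).fx_iff, fixed_iff h hI hz, Finset.mem_filter]
    exact (and_iff_right (Finset.mem_univ _)).symm
  have e3 : dl (gb * ga) = dl (ga * gb) := by rw [map_mul, map_mul, mul_comm]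
  refine SFour.count' (φ := (reps_of h hI hz).opi.comp e.symm.toMonoidHom) hcI
    (s := e (QuotientGroup.mk' (Cfsg.Inn (Assem.PP dl)) (Assem.th dl ga)))
    (s' := e (QuotientGroup.mk' (Cfsg.Inn (Assem.PP dl)) (Assem.th dl gb))) ?_ ?_ ?_ ?_ ?_ ?_ ?_ i
  · rw [h1]
    exact h0 _ (by rw [map_mul, h.sq])
  · rw [h1]
    exact h0 _ (by rw [map_mul, h.sq])
  · rw [h1, h1, out_eq e3]
  · rw [hcard, c1]
  · rw [hcard, c2]
  · rw [h1, hcard]
    simp only [map_mul]
    exact c3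
  · rw [h1]
    intro j
    rw [(reps_of h hI hz).fx_iff, (reps_of h hI hz).fx_iff, fixed_iff h hI hz, fixed_iff h hI hz, map_mul]
    exact c4 j

end final

end Cfsg.Agent.H844.ClsAct
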