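import Mathlib
import Cfsg.Agent.H844.UnipClass

/-!
# Isometries of order three of quadratic spaces over `F₃` (helper844), V: invariants of the shapes
-/

set_option autoImplicit false

namespace Cfsg.Agent.H844.Unip

open QuadraticMap Cfsg.Agent.LieClassical.OrthCore

variable {V : Type*} [AddCommGroup V] [Module (ZMod 3) V] {Q : QuadraticForm (ZMod 3) V} {L L' : V →ₗ[ZMod 3] V}
  {S : Shp} {τ : Fin S.m → ZMod 3} {p : Fin S.m → V} [FiniteDimensional (ZMod 3) V]

/-- the rank of the powers -/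
theorem finrank_range_pow (hL : Sk Q L) (hS : S.Ok) (hp : Fr Q L S τ p) (hd : S.dim = Module.finrank (ZMod 3) V)
    (k : ℕ) : Module.finrank (ZMod 3) (LinearMap.range (L ^ k)) = ∑ i, (S.l i - k) := by
  have hb := hp.basis_apply hL hS hd
  set b := hp.basis hL hS hd
  let φ : (Σ i : Fin S.m, Fin (S.l i - k)) → (Σ i : Fin S.m, Fin (S.l i)) :=
    fun x => ⟨x.1, ⟨x.2 + k, by have := x.2.2; omega⟩⟩
  have hφ : Function.Injective φ := by
    rintro ⟨i, s⟩ ⟨j, t⟩ h
    have h1 : i = j := congrArg Sigma.fst h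
    subst h1
    have h2 := eq_of_heq (Sigma.mk.inj h).2
    have h3 : (s : ℕ) + k = (t : ℕ) + k := congrArg Fin.val h2
    have h4 : s = t := Fin.ext (by omega)
    rw [h4]
  have hli : LinearIndependent (ZMod 3) (fun x => b (φ x)) := b.linearIndependent.comp φ hφ
  have h1 := finrank_span_eq_card hli
  have h2 : Submodule.span (ZMod 3) (Set.range fun x => b (φ x)) = LinearMap.range (L ^ k) := by
    apply le_antisymm
    · rw [Submodule.span_le]
      rintro _ ⟨x, rfl⟩
      refine ⟨(L ^ (x.2 : ℕ)) (p x.1), ?_⟩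
      show _ = b (φ x)
      rw [hb, ← Module.End.mul_apply, ← pow_add]
      show (L ^ (k + (x.2 : ℕ))) (p x.1) = (L ^ ((x.2 : ℕ) + k)) (p x.1)
      rw [add_comm]
    · rw [LinearMap.range_eq_map, ← b.span_eq, Submodule.map_span, Submodule.span_le]
      rintro _ ⟨_, ⟨⟨i, s⟩, rfl⟩, rfl⟩
      rw [hb]
      show (L ^ k) ((L ^ (s : ℕ)) (p i)) ∈ _
      rw [← Module.End.mul_apply, ← pow_add]
      by_cases h : k + (s : ℕ) < S.l i
      · apply Submodule.subset_span
        refine ⟨⟨i, ⟨s, by omega⟩⟩, ?_⟩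
        show b (φ _) = _
        rw [hb]
        show (L ^ ((s : ℕ) + k)) (p i) = _
        rw [add_comm]
      · have h3 : (L ^ (k + (s : ℕ))) (p i) = 0 := by
          obtain ⟨j, hj⟩ : ∃ j, k + (s : ℕ) = j + S.l i := ⟨k + s - S.l i, by omega⟩
          rw [hj, pow_add, Module.End.mul_apply, hp.top, map_zero]
        rw [h3]
        exact Submodule.zero_mem _
  rw [← h2, h1, Fintype.card_sigma]
  simp

/-- the second power on a frame -/
theorem LL_exp (hL : Sk Q L) (hS : S.Ok) (hp : Fr Q L S τ p) (hd : S.dim = Module.finrank (ZMod 3) V)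
    (h3 : ∀ i, S.l i ≤ 3) (hs : ∀ i, S.l i = 3 → S.s i = i) (v : V) :
    L (L v) = ∑ i, if S.l i = 3 then (τ i * polar Q v (L (L (p i)))) • L (L (p i)) else 0 := by
  have hb := hp.basis_apply hL hS hd
  set b := hp.basis hL hS hd
  let M : V →ₗ[ZMod 3] V := ∑ i, if S.l i = 3 then
    (LinearMap.toSpanSingleton (ZMod 3) V (L (L (p i)))) ∘ₗ (τ i • polarBilin Q (L (L (p i)))) else 0
  have hM : ∀ v, M v = ∑ i, if S.l i = 3 then (τ i * polar Q v (L (L (p i)))) • L (L (p i)) else 0 := by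
    intro v
    rw [LinearMap.sum_apply]
    apply Finset.sum_congr rfl
    intro i _
    split_ifs
    · rw [LinearMap.comp_apply, LinearMap.toSpanSingleton_apply, LinearMap.smul_apply, smul_eq_mul,
        polarBilin_apply_apply, pol_comm]
    · rfl
  have h4 : L ∘ₗ L = M := by
    refine b.ext fun x => ?_
    obtain ⟨j, s⟩ := x
    rw [hM, hb]
    have e1 : ∀ i, polar Q (vec L S p ⟨j, s⟩) (L (L (p i))) =
        (-1) ^ (s : ℕ) * (if i = S.s j ∧ (s : ℕ) + 2 + 1 = S.l j then τ j else 0) := by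
      intro i
      show polar Q ((L ^ (s : ℕ)) (p j)) (L (L (p i))) = _
      rw [← pow_two_apply (L := L) (p i), hL.pow, ← Module.End.mul_apply, ← pow_add, hp.pair]
    have e2 : (L ∘ₗ L) (vec L S p ⟨j, s⟩) = (L ^ (2 + (s : ℕ))) (p j) := by
      show L (L ((L ^ (s : ℕ)) (p j))) = _
      rw [← pow_two_apply, ← Module.End.mul_apply, ← pow_add]
    rw [e2]
    by_cases hj : S.l j = 3
    · by_cases hs0 : (s : ℕ) = 0
      · rw [Finset.sum_eq_single j]
        · rw [if_pos hj, e1, hs0, if_pos ⟨(hs j hj).symm, by omega⟩, pow_zero, one_mul, sq_eq_one (hp.ne j), one_smul,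
            add_zero, pow_two_apply]
        · intro i _ hij
          split_ifs
          · rw [e1, if_neg, mul_zero, mul_zero, zero_smul]
            rintro ⟨h, -⟩
            rw [hs j hj] at h
            exact hij h
          · rfl
        · intro h; exact absurd (Finset.mem_univ _) h
      · rw [hL.pow_three _ (by omega), Finset.sum_eq_zero]
        intro i _
        split_ifs
        · rw [e1, if_neg, mul_zero, mul_zero, zero_smul]
          rintro ⟨-, h⟩
          omega
        · rfl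
    · have e3 : (L ^ (2 + (s : ℕ))) (p j) = 0 := by
        obtain ⟨k, hk⟩ : ∃ k, 2 + (s : ℕ) = k + S.l j := ⟨2 + s - S.l j, by have := h3 j; omega⟩
        rw [hk, pow_add, Module.End.mul_apply, hp.top, map_zero]
      rw [e3, Finset.sum_eq_zero]
      intro i _
      split_ifs
      · rw [e1, if_neg, mul_zero, mul_zero, zero_smul]
        rintro ⟨-, h⟩
        have := h3 j
        omega
      · rfl
  rw [← hM, ← h4]
  rfl

/-- invariant: the value 2 is represented by `b(v, L² v)` -/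
def P2 (Q : QuadraticForm (ZMod 3) V) (L : V →ₗ[ZMod 3] V) : Prop := ∃ v, polar Q v (L (L v)) = 2

/-- invariant: the value 0 is represented nontrivially by `b(v, L² v)` -/
def P3 (Q : QuadraticForm (ZMod 3) V) (L : V →ₗ[ZMod 3] V) : Prop := ∃ v, L (L v) ≠ 0 ∧ polar Q v (L (L v)) = 0

omit [FiniteDimensional (ZMod 3) V] in
theorem range_of_comm {g : V ≃ₗ[ZMod 3] V} (hg : ∀ v, g (L v) = L' (g v)) (k : ℕ) :
    Module.finrank (ZMod 3) (LinearMap.range (L ^ k)) = Module.finrank (ZMod 3) (LinearMap.range (L' ^ k)) := by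
  have h1 : ∀ k v, g ((L ^ k) v) = (L' ^ k) (g v) := by
    intro k
    induction k with
    | zero => intro v; rfl
    | succ k ih =>
      intro v
      rw [pow_succ, pow_succ, Module.End.mul_apply, Module.End.mul_apply, ih, hg]
  have h2 : (LinearMap.range (L ^ k)).map (g : V →ₗ[ZMod 3] V) = LinearMap.range (L' ^ k) := by
    ext y
    constructor
    · rintro ⟨_, ⟨v, rfl⟩, rfl⟩
      exact ⟨g v, (h1 k v).symm⟩
    · rintro ⟨v, rfl⟩
      refine ⟨(L ^ k) (g.symm v), ⟨_, rfl⟩, ?_⟩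
      show g ((L ^ k) (g.symm v)) = _
      rw [h1, g.apply_symm_apply]
  rw [← h2]
  exact (g.submoduleMap (LinearMap.range (L ^ k))).finrank_eq

omit [FiniteDimensional (ZMod 3) V] in
theorem P2_of_comm {g : V ≃ₗ[ZMod 3] V} (hgO : g ∈ O Q) (hg : ∀ v, g (L v) = L' (g v)) (h : P2 Q L) : P2 Q L' := by
  obtain ⟨v, hv⟩ := h
  refine ⟨g v, ?_⟩
  rw [← hg, ← hg, polar_map hgO, hv]

omit [FiniteDimensional (ZMod 3) V] in
theorem P3_of_comm {g : V ≃ₗ[ZMod 3] V} (hgO : g ∈ O Q) (hg : ∀ v, g (L v) = L' (g v)) (h : P3 Q L) : P3 Q L' := by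
  obtain ⟨v, hv, hv'⟩ := h
  refine ⟨g v, ?_, ?_⟩
  · rw [← hg, ← hg]
    intro h
    exact hv (g.injective (by rw [h, map_zero]))
  · rw [← hg, ← hg, polar_map hgO, hv']

end Cfsg.Agent.H844.Unip
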