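import Mathlib
import Cfsg.Agent.H844.UnipCent
import Cfsg.Agent.H844.UnipInv
import Cfsg.Agent.FooteOrth.Spin

/-!
# Isometries of order three of quadratic spaces over `F₃` (helper844), VI: determinant and spinor sign; assembly
-/

set_option autoImplicit false
set_option linter.unusedSectionVars false

namespace Cfsg.Agent.H844.Unip

open QuadraticMap Cfsg.Agent.LieClassical.OrthCore Cfsg.Agent.LieClassical.OrthTrans

variable {ι : Type} [Fintype ι] [DecidableEq ι] (Q : QuadraticForm (ZMod 3) (ι → ZMod 3))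

/-- determinant and spinor sign -/
abbrev AA := (ZMod 3)ˣ × ℤˣ

/-- determinant and spinor sign -/
noncomputable def dl : O Q →* AA := (LinearEquiv.det.comp (O Q).subtype).prod (FooteOrth.sg Q)

variable {Q}

theorem two_ne : (2 : ZMod 3) ≠ 0 := by decide

theorem isSquare_iff {a : ZMod 3} (h : a ≠ 0) : IsSquare a ↔ a = 1 := by
  constructor
  · rintro ⟨b, rfl⟩
    revert h
    revert b
    decide
  · rintro rfl
    exact ⟨1, by decide⟩

theorem dl_refl {v : ι → ZMod 3} (hv : Q v ≠ 0) :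
    dl Q ⟨refl Q v hv, refl_mem_O hv⟩ = (-1, if Q v = 1 then -1 else 1) := by
  classical
  apply Prod.ext
  · exact FooteOrth.det_refl hv
  · show FooteOrth.sg Q ⟨refl Q v hv, refl_mem_O hv⟩ = _
    rw [FooteOrth.sg_refl two_ne hv]
    simp only [isSquare_iff hv]

theorem dl_refl_one {v : ι → ZMod 3} (hv : Q v ≠ 0) (h : Q v = 1) : dl Q ⟨refl Q v hv, refl_mem_O hv⟩ = (-1, -1) := by
  rw [dl_refl, if_pos h]

theorem dl_refl_two {v : ι → ZMod 3} (hv : Q v ≠ 0) (h : Q v = 2) : dl Q ⟨refl Q v hv, refl_mem_O hv⟩ = (-1, 1) := by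
  rw [dl_refl, if_neg]
  rw [h]
  decide

theorem mem_E_iff_dl (hG : Good Q) (g : O Q) : (g : (ι → ZMod 3) ≃ₗ[ZMod 3] (ι → ZMod 3)) ∈ E Q ↔ dl Q g = 1 := by
  rw [FooteOrth.mem_E_iff hG two_ne g.2, Prod.ext_iff]
  rfl

theorem AA_sq : ∀ a : AA, a * a = 1 := by decide

theorem AA_nine : ∀ a : AA, a ^ 9 = 1 → a = 1 := by decide

theorem AA_three : ∀ a : AA, a ^ 3 = 1 → a = 1 := by decide

theorem dl_of_nine (g : O Q) (h : ((g : (ι → ZMod 3) ≃ₗ[ZMod 3] (ι → ZMod 3))) ^ 9 = 1) : dl Q g = 1 := by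
  have h1 : g ^ 9 = 1 := by
    apply Subtype.ext
    rw [Subgroup.coe_pow, h, Subgroup.coe_one]
  apply AA_nine
  rw [← map_pow, h1, map_one]

theorem dl_of_three {g : O Q} (h : g ^ 3 = 1) : dl Q g = 1 := by
  apply AA_three
  rw [← map_pow, h, map_one]

/-- the exponential as an element of the isometry group -/
def exO {L : (ι → ZMod 3) →ₗ[ZMod 3] (ι → ZMod 3)} (hL : Sk Q L) : O Q := ⟨ex hL, ex_mem hL⟩

variable {L L' : (ι → ZMod 3) →ₗ[ZMod 3] (ι → ZMod 3)}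

theorem exO_three (hL : Sk Q L) : (exO hL) ^ 3 = 1 := by
  apply Subtype.ext
  ext1 v
  rw [pow_succ, pow_two]
  exact ex_cube hL v

theorem conj_ex_of {hL : Sk Q L} {hL' : Sk Q L'} {g : O Q}
    (h : ∀ v, (g : (ι → ZMod 3) ≃ₗ[ZMod 3] (ι → ZMod 3)) (L v) = L' ((g : (ι → ZMod 3) ≃ₗ[ZMod 3] (ι → ZMod 3)) v)) :
    g * exO hL * g⁻¹ = exO hL' := by
  rw [mul_inv_eq_iff_eq_mul]
  apply Subtype.ext
  ext1 v
  show (g : (ι → ZMod 3) ≃ₗ[ZMod 3] (ι → ZMod 3)) (ex hL v) = ex hL' ((g : (ι → ZMod 3) ≃ₗ[ZMod 3] (ι → ZMod 3)) v)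
  rw [ex_apply, ex_apply, map_sub, map_add, h, h, h]

theorem of_conj_ex {hL : Sk Q L} {hL' : Sk Q L'} {g : O Q} (h : g * exO hL * g⁻¹ = exO hL') (v : ι → ZMod 3) :
    (g : (ι → ZMod 3) ≃ₗ[ZMod 3] (ι → ZMod 3)) (L v) = L' ((g : (ι → ZMod 3) ≃ₗ[ZMod 3] (ι → ZMod 3)) v) := by
  have h1 := congrArg Subtype.val h
  have h2 := comm_of_conj (x := ex hL) (y := ex hL') (g := (g : (ι → ZMod 3) ≃ₗ[ZMod 3] (ι → ZMod 3))) h1 v
  rwa [lg_ex, lg_ex] at h2

/-- the negative of a skew map -/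
theorem Sk.neg (hL : Sk Q L) : Sk Q (-L) where
  skew v w := by
    rw [LinearMap.neg_apply, LinearMap.neg_apply, pol_neg_left, pol_neg_right, hL.skew]
  cube v := by
    simp only [LinearMap.neg_apply, map_neg, hL.cube, neg_zero]

theorem exO_neg (hL : Sk Q L) : exO hL.neg = (exO hL)⁻¹ := by
  rw [eq_inv_iff_mul_eq_one]
  apply Subtype.ext
  ext1 v
  show ex hL.neg (ex hL v) = v
  rw [ex_apply, ex_apply]
  simp only [LinearMap.neg_apply, map_neg, map_add, map_sub, hL.cube, neg_zero, neg_neg, sub_zero]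
  linear_combination (norm := module) (-1 : ℤ) • add3 (L (L v))

/-- every element of order three is an exponential -/
theorem exists_exO {x : O Q} (h : x ^ 3 = 1) : ∃ (L : (ι → ZMod 3) →ₗ[ZMod 3] (ι → ZMod 3)) (hL : Sk Q L), x = exO hL := by
  have h3 : ∀ v, (x : (ι → ZMod 3) ≃ₗ[ZMod 3] (ι → ZMod 3)) ((x : (ι → ZMod 3) ≃ₗ[ZMod 3] (ι → ZMod 3))
      ((x : (ι → ZMod 3) ≃ₗ[ZMod 3] (ι → ZMod 3)) v)) = v := by
    intro v
    have h1 := congrArg Subtype.val h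
    have h2 := LinearEquiv.congr_fun h1 v
    rw [Subgroup.coe_pow, pow_succ, pow_two] at h2
    exact h2
  refine ⟨lg (x : (ι → ZMod 3) ≃ₗ[ZMod 3] (ι → ZMod 3)), Sk.of_mem x.2 h3, ?_⟩
  apply Subtype.ext
  ext1 v
  show (x : (ι → ZMod 3) ≃ₗ[ZMod 3] (ι → ZMod 3)) v = ex (Sk.of_mem x.2 h3) v
  rw [ex_apply]
  exact apply_eq h3 v

end Cfsg.Agent.H844.Unip
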